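import Cfsg.Agent.Lib.Helper90.Sp.Defs
import Cfsg.Agent.Lib.Helper21.Asch.L14
import Cfsg.Agent.Lib.Helper35.Asch.Kron

set_option autoImplicit false

/-! # Gram matrices on tensor powers with adjoint-closed factors -/

namespace Cfsg.Agent.Lib.Helper63.Sp

open Cfsg Cfsg.Geo Matrix Cfsg.Agent.Lib.Helper13.Asch Cfsg.Agent.Lib.Helper90.Sp
open Cfsg.Agent.Lib.Helper21.Asch Cfsg.Agent.Lib.Helper35.Asch
open scoped Kronecker MatrixGroups

variable {ι : Type} [Fintype ι] [DecidableEq ι] {F : Type*} [Field F]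

theorem stdT_transpose {m t : ℕ} (i : Fin t) (X : Matrix (Fin m) (Fin m) F) :
    (stdT i X)ᵀ = stdT i Xᵀ := by
  ext x y
  simp only [stdT, Matrix.transpose_apply]
  by_cases h : ∀ j, j ≠ i → x j = y j
  · rw [if_pos h, if_pos (fun j hj => (h j hj).symm)]
  · rw [if_neg h, if_neg (fun h' => h (fun j hj => (h' j hj).symm))]

/-- an algebra endomorphism of a full matrix algebra is inner -/
theorem algHom_inner {m : ℕ} (β : Matrix (Fin m) (Fin m) F →ₐ[F] Matrix (Fin m) (Fin m) F) :
    ∃ g : GL (Fin m) F, ∀ X, β X = (g : Matrix _ _ F) * X * ((g⁻¹ : GL _ F) : Matrix _ _ F) := by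
  by_cases hm : Nonempty (Fin m)
  · have hinj : Function.Injective β := β.toRingHom.injective
    have hsurj : Function.Surjective β :=
      (LinearMap.injective_iff_surjective (f := β.toLinearMap)).mp hinj
    obtain ⟨g, hg⟩ := skolem_noether (AlgEquiv.ofBijective β ⟨hinj, hsurj⟩)
    exact ⟨g, fun X => hg X⟩
  · rw [not_nonempty_iff] at hm
    exact ⟨1, fun X => Subsingleton.elim _ _⟩

/-- the pure tensor of a family of invertible matrices -/
theorem pureT_GL_mul_inv {m t : ℕ} (C : Fin t → GL (Fin m) F) :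
    pureT (fun i => (C i : Matrix (Fin m) (Fin m) F)) *
      pureT (fun i => ((C i)⁻¹ : GL (Fin m) F).1) = 1 := by
  rw [← pureT_mul, ← pureT_one]
  congr 1
  ext1 j
  simp only [Pi.mul_apply, Pi.one_apply]
  rw [← Units.val_mul, mul_inv_cancel]; rfl

theorem pureT_GL_inv_mul {m t : ℕ} (C : Fin t → GL (Fin m) F) :
    pureT (fun i => ((C i)⁻¹ : GL (Fin m) F).1) *
      pureT (fun i => (C i : Matrix (Fin m) (Fin m) F)) = 1 := by
  rw [← pureT_mul, ← pureT_one]
  congr 1
  ext1 j
  simp only [Pi.mul_apply, Pi.one_apply]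
  rw [← Units.val_mul, inv_mul_cancel]; rfl

/-- W1 -/
theorem gram_tensor_power {m t : ℕ} (G : Matrix (Fin t → Fin m) (Fin t → Fin m) F)
    (hG : IsUnit G.det)
    (hadj : ∀ i (X : Matrix (Fin m) (Fin m) F), ∃ Y : Matrix (Fin m) (Fin m) F,
      (stdT i X)ᵀ * G = G * stdT i Y) :
    ∃ (c : F) (Gs : Fin t → GL (Fin m) F), c ≠ 0 ∧
      ∀ a b, G a b = c * ∏ i, (Gs i : Matrix (Fin m) (Fin m) F) (a i) (b i) := by
  by_cases hT : Nonempty (Fin t → Fin m)
  swap
  · rw [not_nonempty_iff] at hT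
    exact ⟨1, fun _ => 1, one_ne_zero, fun a => hT.elim a⟩
  choose Y hY using hadj
  have hGl : G⁻¹ * G = 1 := Matrix.nonsing_inv_mul G hG
  have cancel : ∀ A B : Matrix (Fin t → Fin m) (Fin t → Fin m) F, G * A = G * B → A = B := by
    intro A B h
    calc A = G⁻¹ * G * A := by rw [hGl, one_mul]
      _ = G⁻¹ * (G * B) := by rw [mul_assoc, h]
      _ = B := by rw [← mul_assoc, hGl, one_mul]
  let β : ∀ i, Matrix (Fin m) (Fin m) F →ₐ[F] Matrix (Fin m) (Fin m) F := fun i =>
    AlgHom.ofLinearMap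
      { toFun := fun X => Y i Xᵀ
        map_add' := fun X X' => stdT_injective i (cancel _ _ (by
          rw [← hY, Matrix.transpose_add, stdT_add, Matrix.transpose_add, add_mul, hY, hY, stdT_add,
            mul_add]))
        map_smul' := fun c X => stdT_injective i (cancel _ _ (by
          simp only [RingHom.id_apply]
          rw [← hY, Matrix.transpose_smul, stdT_smul, Matrix.transpose_smul, smul_mul_assoc, hY,
            stdT_smul, mul_smul_comm])) }
      (stdT_injective i (cancel _ _ (by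
        show G * stdT i (Y i (1 : Matrix (Fin m) (Fin m) F)ᵀ) = _
        rw [← hY, Matrix.transpose_one, stdT_one, Matrix.transpose_one, one_mul, mul_one])))
      (fun X X' => stdT_injective i (cancel _ _ (by
        show G * stdT i (Y i (X * X')ᵀ) = G * stdT i (Y i Xᵀ * Y i X'ᵀ)
        rw [← hY, Matrix.transpose_mul, stdT_mul, Matrix.transpose_mul, mul_assoc, hY, ← mul_assoc,
          hY, mul_assoc, ← stdT_mul])))
  have hin := fun i => algHom_inner (β i)
  choose C hC using hin
  have hC' : ∀ i X, Y i Xᵀ = (C i : Matrix _ _ F) * X * (((C i)⁻¹ : GL _ F) : Matrix _ _ F) :=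
    fun i X => hC i X
  -- `stdT i X * G = G * stdT i (C X C⁻¹)`
  have h1 : ∀ i X, stdT i X * G
      = G * stdT i ((C i : Matrix _ _ F) * X * (((C i)⁻¹ : GL _ F) : Matrix _ _ F)) := by
    intro i X
    rw [← hC', ← hY, stdT_transpose, Matrix.transpose_transpose]
  set PC := pureT (fun i => (C i : Matrix (Fin m) (Fin m) F)) with hPC
  set PC' := pureT (fun i => ((C i)⁻¹ : GL (Fin m) F).1) with hPC'
  have e1 : PC * PC' = 1 := pureT_GL_mul_inv C
  have e2 : PC' * PC = 1 := pureT_GL_inv_mul C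
  have hcomm : ∀ i (X : Matrix (Fin m) (Fin m) F), Commute (G * PC) (stdT i X) := by
    intro i X
    have h2 := pureT_conj (fun i => (C i : Matrix (Fin m) (Fin m) F))
      (fun i => ((C i)⁻¹ : GL (Fin m) F).1) (fun j => by
        rw [← Units.val_mul, mul_inv_cancel]; rfl) i X
    show G * PC * stdT i X = stdT i X * (G * PC)
    rw [← mul_assoc, h1, ← h2]
    simp only [mul_assoc]
    rw [← hPC, ← hPC', e2, mul_one]
  obtain ⟨c, hc⟩ := scalar_of_commute_stdT _ hcomm
  have hGc : G = c • PC' := by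
    calc G = G * PC * PC' := by rw [mul_assoc, e1, mul_one]
      _ = c • PC' := by rw [hc, smul_mul_assoc, one_mul]
  refine ⟨c, fun i => (C i)⁻¹, ?_, fun a b => ?_⟩
  · rintro rfl
    rw [zero_smul] at hGc
    rw [hGc, mul_zero] at hGl
    exact zero_ne_one hGl
  · rw [hGc, Matrix.smul_apply, hPC', pureT_apply, smul_eq_mul]

end Cfsg.Agent.Lib.Helper63.Sp
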