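import Cfsg.Agent.Lib.Helper63.Sp.W2
import Cfsg.Agent.Lib.Helper12.Sp.T0
import Cfsg.Agent.Lib.Helper55.Asch.FormCore

set_option autoImplicit false

/-! # Class 7 with a symplectic form -/

namespace Cfsg.Agent.Lib.Helper63.Sp

open Cfsg Cfsg.Geo Matrix Cfsg.Agent.Lib.Helper13.Asch Cfsg.Agent.Lib.Helper90.Sp
open Cfsg.Agent.Lib.Helper21.Asch Cfsg.Agent.Lib.Helper35.Asch Cfsg.Agent.Lib.Helper55.Asch
open Cfsg.Agent.Lib.Helper12.Sp
open scoped Kronecker MatrixGroups

variable {ι : Type} [Fintype ι] [DecidableEq ι] {F : Type*} [Field F]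

theorem pureT_transpose {m t : ℕ} (f : Fin t → Matrix (Fin m) (Fin m) F) :
    (pureT f)ᵀ = pureT (fun i => (f i)ᵀ) := by
  ext x y
  simp only [pureT_apply, Matrix.transpose_apply]

theorem pureT_smul {m t : ℕ} (l : Fin t → F) (A : Fin t → Matrix (Fin m) (Fin m) F) :
    pureT (fun i => l i • A i) = (∏ i, l i) • pureT A := by
  ext x y
  simp only [pureT_apply, Matrix.smul_apply, smul_eq_mul, Finset.prod_mul_distrib]

/-- sign analysis of a skew tensor power -/
theorem skew_power {m t : ℕ} (ht : 0 < t) (h2 : (2 : F) ≠ 0) (G0 : Matrix (Fin m) (Fin m) F)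
    (hne : G0 ≠ 0)
    (hskew : ∀ a b : Fin t → Fin m, ∏ i, G0 (b i) (a i) = -∏ i, G0 (a i) (b i)) :
    Odd t ∧ G0ᵀ = -G0 := by
  obtain ⟨k, rfl⟩ := Nat.exists_eq_succ_of_ne_zero ht.ne'
  obtain ⟨p, q, hpq⟩ : ∃ p q, G0 p q ≠ 0 := by
    by_contra hcon
    push Not at hcon
    exact hne (by ext i j; exact hcon i j)
  have E1 : ∀ r s, G0 s r * G0 q p ^ k = -(G0 r s * G0 p q ^ k) := by
    intro r s
    have := hskew (Fin.cons r (fun _ => p)) (Fin.cons s (fun _ => q))
    simpa [Fin.prod_univ_succ] using this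
  set x := G0 p q with hx
  set y := G0 q p with hy
  have h1 : y * y ^ k = -(x * x ^ k) := E1 p q
  have h3 : x * y ^ k = -(y * x ^ k) := E1 q p
  have hxk : x ^ k ≠ 0 := pow_ne_zero _ hpq
  have hsq : (y - x) * (y + x) = 0 := by
    have : x ^ k * ((y - x) * (y + x)) = 0 := by linear_combination (-x) * h1 + y * h3
    exact (mul_eq_zero.1 this).resolve_left hxk
  rcases mul_eq_zero.1 hsq with h | h
  · exfalso
    have hyx : y = x := by linear_combination h
    rw [hyx] at h1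
    have : (2 : F) * (x * x ^ k) = 0 := by linear_combination h1
    rcases mul_eq_zero.1 this with h' | h'
    · exact h2 h'
    · exact (mul_ne_zero hpq hxk) h'
  · have hyx : y = -x := by linear_combination h
    rw [hyx] at h1 E1
    have hk : (-x) ^ k = x ^ k := by
      have : x * ((-x) ^ k - x ^ k) = 0 := by linear_combination -h1
      have := (mul_eq_zero.1 this).resolve_left hpq
      linear_combination this
    constructor
    · have h4 : (-1 : F) ^ k = 1 := by
        rw [neg_pow] at hk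
        have : x ^ k * ((-1) ^ k - 1) = 0 := by linear_combination hk
        have := (mul_eq_zero.1 this).resolve_left hxk
        linear_combination this
      have hne1 : (-1 : F) ≠ 1 := by
        intro h'
        apply h2
        linear_combination -h'
      have := (neg_one_pow_eq_one_iff_even hne1).1 h4
      exact this.add_one
    · ext r s
      rw [Matrix.transpose_apply, Matrix.neg_apply]
      have := E1 r s
      rw [hk] at this
      have h5 : x ^ k * (G0 s r + G0 r s) = 0 := by linear_combination this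
      have := (mul_eq_zero.1 h5).resolve_left hxk
      linear_combination this

lemma embT_mulVec {m t : ℕ} (e : ι ≃ (Fin t → Fin m)) (P : GL ι F) (i : Fin t)
    (X : Matrix (Fin m) (Fin m) F) (x : (Fin t → Fin m) → F) :
    embT e P i X *ᵥ ((P : Matrix ι ι F) *ᵥ (x ∘ e)) =
      (P : Matrix ι ι F) *ᵥ ((stdT i X *ᵥ x) ∘ e) := by
  unfold embT
  rw [Matrix.mulVec_mulVec, mul_assoc, ← Units.val_mul, inv_mul_cancel, Units.val_one, mul_one,
    ← Matrix.mulVec_mulVec, reindex_mulVec_comp]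

/-- passing to standard coordinates -/
lemma conj_to_std {m t : ℕ} (e : ι ≃ (Fin t → Fin m)) (P h : GL ι F) (i j : Fin t)
    (X Y : Matrix (Fin m) (Fin m) F)
    (hY : (h : Matrix ι ι F) * embT e P i X * ((h⁻¹ : GL ι F) : Matrix ι ι F) = embT e P j Y) :
    ((glReindex e (P⁻¹ * h * P) : GL (Fin t → Fin m) F) : Matrix (Fin t → Fin m) (Fin t → Fin m) F) *
      stdT i X * (((glReindex e (P⁻¹ * h * P))⁻¹ : GL (Fin t → Fin m) F) :
        Matrix (Fin t → Fin m) (Fin t → Fin m) F) = stdT j Y := by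
  set k : GL ι F := P⁻¹ * h * P with hk
  set h' : GL (Fin t → Fin m) F := glReindex e k with hh'
  set ρ := Matrix.reindexAlgEquiv F F e with hρ
  have e1 : (h' : Matrix (Fin t → Fin m) (Fin t → Fin m) F) = ρ (k : Matrix ι ι F) := rfl
  have e2 : ((h'⁻¹ : GL (Fin t → Fin m) F) : Matrix (Fin t → Fin m) (Fin t → Fin m) F) =
      ρ ((k⁻¹ : GL ι F) : Matrix ι ι F) := by
    rw [hh', ← map_inv]; rfl
  have e3 : ∀ S : Matrix (Fin t → Fin m) (Fin t → Fin m) F,
      Matrix.reindex e.symm e.symm S = ρ.symm S := fun S => rfl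
  unfold embT at hY
  rw [e3, e3] at hY
  have h1 : (k : Matrix ι ι F) * ρ.symm (stdT i X) * ((k⁻¹ : GL ι F) : Matrix ι ι F) =
      ρ.symm (stdT j Y) := by
    have h2 : ρ.symm (stdT j Y) = ((P⁻¹ : GL ι F) : Matrix ι ι F) *
        ((P : Matrix ι ι F) * ρ.symm (stdT j Y) * ((P⁻¹ : GL ι F) : Matrix ι ι F)) * P := by
      simp [mul_assoc]
    rw [h2, ← hY, hk]
    simp [mul_assoc]
  rw [e1, e2]
  have h3 : stdT i X = ρ (ρ.symm (stdT i X)) := (ρ.apply_symm_apply _).symm
  rw [h3, ← map_mul, ← map_mul, h1, ρ.apply_symm_apply]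

lemma std_mulVec {m t : ℕ} (e : ι ≃ (Fin t → Fin m)) (P h : GL ι F) (x : (Fin t → Fin m) → F) :
    (P : Matrix ι ι F) *ᵥ ((((glReindex e (P⁻¹ * h * P) : GL (Fin t → Fin m) F) :
      Matrix (Fin t → Fin m) (Fin t → Fin m) F) *ᵥ x) ∘ e) =
      (h : Matrix ι ι F) *ᵥ ((P : Matrix ι ι F) *ᵥ (x ∘ e)) := by
  rw [← reindex_mulVec_comp]
  have e1 : Matrix.reindex e.symm e.symm (((glReindex e (P⁻¹ * h * P) : GL (Fin t → Fin m) F) :
      Matrix (Fin t → Fin m) (Fin t → Fin m) F)) = ((P⁻¹ * h * P : GL ι F) : Matrix ι ι F) := by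
    show (Matrix.reindexAlgEquiv F F e).symm ((Matrix.reindexAlgEquiv F F e) _) = _
    exact (Matrix.reindexAlgEquiv F F e).symm_apply_apply _
  rw [e1, Matrix.mulVec_mulVec, Matrix.mulVec_mulVec, ← Units.val_mul, ← Units.val_mul]
  congr 2
  group

/-- change of the tensor frame by a pure tensor -/
lemma embT_pure {m t : ℕ} (e : ι ≃ (Fin t → Fin m)) (B : GL ι F) (C : Fin t → GL (Fin m) F)
    (Tg : GL (Fin t → Fin m) F)
    (hTg : (Tg : Matrix (Fin t → Fin m) (Fin t → Fin m) F)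
      = pureT (fun i => (C i : Matrix (Fin m) (Fin m) F)))
    (hTg' : ((Tg⁻¹ : GL (Fin t → Fin m) F) : Matrix (Fin t → Fin m) (Fin t → Fin m) F)
      = pureT (fun i => ((C i)⁻¹ : GL (Fin m) F).1))
    (i : Fin t) (X : Matrix (Fin m) (Fin m) F) :
    embT e (B * glReindex e.symm Tg) i X
      = embT e B i ((C i).1 * X * ((C i)⁻¹ : GL (Fin m) F).1) := by
  set ρ := Matrix.reindexAlgEquiv F F e with hρ
  have e3 : ∀ S : Matrix (Fin t → Fin m) (Fin t → Fin m) F,
      Matrix.reindex e.symm e.symm S = ρ.symm S := fun S => rfl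
  have e1 : ((glReindex e.symm Tg : GL ι F) : Matrix ι ι F)
      = ρ.symm (Tg : Matrix (Fin t → Fin m) (Fin t → Fin m) F) := rfl
  have e2 : (((glReindex e.symm Tg)⁻¹ : GL ι F) : Matrix ι ι F)
      = ρ.symm ((Tg⁻¹ : GL (Fin t → Fin m) F) : Matrix (Fin t → Fin m) (Fin t → Fin m) F) := by
    rw [← map_inv]; rfl
  have h2 := pureT_conj (fun i => (C i : Matrix (Fin m) (Fin m) F))
      (fun i => ((C i)⁻¹ : GL (Fin m) F).1) (fun j => by
        rw [← Units.val_mul, mul_inv_cancel]; rfl) i X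
  unfold embT
  rw [_root_.mul_inv_rev, Units.val_mul, Units.val_mul, e1, e2, e3, e3, ← h2, hTg, hTg', map_mul,
    map_mul]
  simp only [mul_assoc]

/-- W3 -/
theorem sp_tensor_power [Fintype F] [Nonempty ι] (h2 : (2 : F) ≠ 0) {f : (ι → F) → (ι → F) → F}
    (hf : IsSymplecticForm f) {H : Subgroup (GL ι F)} (hH : FixesForm (matrixSet H) f) {m t : ℕ}
    (ht : 0 < t) (e : ι ≃ (Fin t → Fin m)) (B : GL ι F)
    (hperm : ∀ h ∈ H, ∃ σ : Equiv.Perm (Fin t), ∀ i X, ∃ Y,
      (h : Matrix ι ι F) * embT e B i X * ((h⁻¹ : GL ι F) : Matrix ι ι F) = embT e B (σ i) Y)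
    (htrans : ∀ i j, ∃ h ∈ H, ∀ X, ∃ Y,
      (h : Matrix ι ι F) * embT e B i X * ((h⁻¹ : GL ι F) : Matrix ι ι F) = embT e B j Y)
    (hadj : ∀ i X, ∃ Y, ∀ u v, f (embT e B i X *ᵥ u) v = f u (embT e B i Y *ᵥ v)) :
    Odd t ∧ ∃ (B' : GL ι F) (f₁ : (Fin m → F) → (Fin m → F) → F), IsSymplecticForm f₁ ∧
      IsTensorPowerFormStructure id f f₁ e B' ∧ H ≤ tensorWreathSubgroup m t e B' := by
  classical
  obtain ⟨i₀⟩ := ‹Nonempty ι›
  have hm : Nonempty (Fin m) := ⟨e i₀ ⟨0, ht⟩⟩
  set T : ((Fin t → Fin m) → F) → (ι → F) := fun x => (B : Matrix ι ι F) *ᵥ (x ∘ e) with hT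
  have Tadd : ∀ x y, T (x + y) = T x + T y := by
    intro x y
    simp only [hT]
    rw [← Matrix.mulVec_add]; rfl
  have Tsmul : ∀ (c : F) x, T (c • x) = c • T x := by
    intro c x
    simp only [hT]
    rw [← Matrix.mulVec_smul]; rfl
  have Tinj : ∀ x, x ≠ 0 → T x ≠ 0 := by
    intro x hx h0
    apply hx
    have h1 : ((B⁻¹ : GL ι F) : Matrix ι ι F) *ᵥ T x = x ∘ e := by
      simp only [hT]
      rw [Matrix.mulVec_mulVec, ← Units.val_mul, inv_mul_cancel, Units.val_one, Matrix.one_mulVec]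
    rw [h0, Matrix.mulVec_zero] at h1
    ext k
    have := congrFun h1 (e.symm k)
    simpa using this.symm
  have Tsurj : ∀ u, ∃ x, T x = u := by
    intro u
    refine ⟨(((B⁻¹ : GL ι F) : Matrix ι ι F) *ᵥ u) ∘ e.symm, ?_⟩
    simp only [hT]
    have : ((((B⁻¹ : GL ι F) : Matrix ι ι F) *ᵥ u) ∘ e.symm) ∘ e
        = ((B⁻¹ : GL ι F) : Matrix ι ι F) *ᵥ u := by
      ext i; simp
    rw [this, Matrix.mulVec_mulVec, ← Units.val_mul, mul_inv_cancel, Units.val_one,
      Matrix.one_mulVec]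
  set f' : ((Fin t → Fin m) → F) → ((Fin t → Fin m) → F) → F := fun x y => f (T x) (T y) with hf'
  set G := Cfsg.Agent.Lib.Helper55.Asch.gram f' with hG
  have hfG : ∀ x y, f' x y = gform (RingHom.id F) G x y := by
    apply eq_gform (RingHom.id F) f'
    · intro x y v; simp only [hf']; rw [Tadd, hf.bilinear.add_left]
    · intro c x v; simp only [hf']; rw [Tsmul, hf.bilinear.smul_left]
    · intro v x y; simp only [hf']; rw [Tadd, hf.bilinear.add_right]
    · intro c v x; simp only [hf']; rw [Tsmul, hf.bilinear.smul_right]; rfl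
  have hGdet : IsUnit G.det := by
    apply isUnit_det_of_nondeg (RingEquiv.refl F) G
    intro v hv
    obtain ⟨u, hu⟩ := (hf.nondegenerate _ (Tinj v hv)).1
    obtain ⟨x, rfl⟩ := Tsurj u
    refine ⟨x, ?_⟩
    have := hfG x v
    intro h0
    apply hu
    rw [← h0]
    exact this
  have hGT : Gᵀ = -G := by
    ext p q
    simp only [hG, Cfsg.Agent.Lib.Helper55.Asch.gram, Matrix.transpose_apply, Matrix.of_apply, Matrix.neg_apply, hf']
    exact hf.skew _ _
  have hgl : ∀ (M : Matrix (Fin t → Fin m) (Fin t → Fin m) F) x y,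
      gform (RingHom.id F) G (M *ᵥ x) y = gform (RingHom.id F) (Mᵀ * G) x y := by
    intro M x y
    simp only [gform]
    rw [← Matrix.mulVec_mulVec, Matrix.dotProduct_mulVec x Mᵀ, Matrix.vecMul_transpose]
  have hgr : ∀ (M : Matrix (Fin t → Fin m) (Fin t → Fin m) F) x y,
      gform (RingHom.id F) G x (M *ᵥ y) = gform (RingHom.id F) (G * M) x y := by
    intro M x y
    simp only [gform, RingHom.id_apply]
    rw [← Matrix.mulVec_mulVec]
  have hXY : ∀ i (X : Matrix (Fin m) (Fin m) F), ∃ Y : Matrix (Fin m) (Fin m) F,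
      (stdT i X)ᵀ * G = G * stdT i Y := by
    intro i X
    obtain ⟨Y, hY⟩ := hadj i X
    refine ⟨Y, gform_ext (RingHom.id F) ?_⟩
    intro x y
    rw [← hgl, ← hgr, ← hfG, ← hfG]
    have := hY (T x) (T y)
    simp only [hT] at this
    rw [embT_mulVec, embT_mulVec] at this
    exact this
  obtain ⟨c, Gs, hc, hGs⟩ := gram_tensor_power G hGdet hXY
  set i0 : Fin t := ⟨0, ht⟩ with hi0
  -- similar Gram matrices
  have hsim : ∀ i, ∃ (C : GL (Fin m) F) (l : F), l ≠ 0 ∧
      (C : Matrix (Fin m) (Fin m) F)ᵀ * (Gs i : Matrix (Fin m) (Fin m) F) *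
        (C : Matrix (Fin m) (Fin m) F) = l • (Gs i0 : Matrix (Fin m) (Fin m) F) := by
    intro i
    obtain ⟨h, hhH, hh⟩ := htrans i0 i
    refine gram_conj c hc Gs G hGs (glReindex e (B⁻¹ * h * B)) ?_ i0 i ?_
    · apply gform_ext (RingHom.id F)
      intro x y
      have h1 := gform_mulVec (RingHom.id F) G
        ((glReindex e (B⁻¹ * h * B) : GL (Fin t → Fin m) F) :
          Matrix (Fin t → Fin m) (Fin t → Fin m) F) x y
      have h3 : (((glReindex e (B⁻¹ * h * B) : GL (Fin t → Fin m) F) :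
          Matrix (Fin t → Fin m) (Fin t → Fin m) F)).map (RingHom.id F)
          = ((glReindex e (B⁻¹ * h * B) : GL (Fin t → Fin m) F) :
          Matrix (Fin t → Fin m) (Fin t → Fin m) F) := by
        ext a b; simp
      rw [h3] at h1
      rw [← h1, ← hfG, ← hfG]
      simp only [hf', hT]
      rw [std_mulVec, std_mulVec]
      exact hH _ ⟨h, hhH, rfl⟩ _ _
    · intro X
      obtain ⟨Y, hY⟩ := hh X
      exact ⟨Y, conj_to_std e B h i0 i X Y hY⟩
  choose C l hl hC using hsim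
  set PC := pureT (fun i => (C i : Matrix (Fin m) (Fin m) F)) with hPC
  set PC' := pureT (fun i => ((C i)⁻¹ : GL (Fin m) F).1) with hPC'
  let Tg : GL (Fin t → Fin m) F := ⟨PC, PC', pureT_GL_mul_inv C, pureT_GL_inv_mul C⟩
  have hemb := embT_pure e B C Tg rfl rfl
  set G0 : Matrix (Fin m) (Fin m) F := (Gs i0).1 with hG0
  -- the new Gram matrix
  have hGc : G = c • pureT (fun i => (Gs i : Matrix (Fin m) (Fin m) F)) := by
    ext a b
    rw [hGs, Matrix.smul_apply, pureT_apply, smul_eq_mul]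
  have hnew : PCᵀ * G * PC = (c * ∏ i, l i) • pureT (fun _ : Fin t => G0) := by
    rw [hGc, hPC, pureT_transpose, mul_smul_comm, smul_mul_assoc, ← pureT_mul, ← pureT_mul]
    have : ((fun i => ((C i : Matrix (Fin m) (Fin m) F))ᵀ) * fun i => (Gs i : Matrix (Fin m) (Fin m) F)) *
        (fun i => (C i : Matrix (Fin m) (Fin m) F)) = fun i => l i • G0 := by
      ext1 i
      exact hC i
    rw [this, pureT_smul, smul_smul]
  have hc' : c * ∏ i, l i ≠ 0 := mul_ne_zero hc (Finset.prod_ne_zero_iff.2 fun i _ => hl i)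
  have hG0ne : G0 ≠ 0 := by
    intro h0
    have : G0 * ((Gs i0)⁻¹ : GL (Fin m) F).1 = 1 := by
      rw [hG0, ← Units.val_mul, mul_inv_cancel]; rfl
    rw [h0, zero_mul] at this
    exact zero_ne_one this
  have hskew : ∀ a b : Fin t → Fin m, ∏ i, G0 (b i) (a i) = -∏ i, G0 (a i) (b i) := by
    intro a b
    have h1 : (PCᵀ * G * PC)ᵀ = -(PCᵀ * G * PC) := by
      rw [Matrix.transpose_mul, Matrix.transpose_mul, Matrix.transpose_transpose, hGT]
      simp [mul_assoc]
    rw [hnew] at h1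
    have h3 := congrFun (congrFun h1 a) b
    simp only [Matrix.transpose_apply, Matrix.smul_apply, Matrix.neg_apply, pureT_apply,
      smul_eq_mul] at h3
    have : (c * ∏ i, l i) * (∏ i, G0 (b i) (a i) + ∏ i, G0 (a i) (b i)) = 0 := by
      linear_combination h3
    have := (mul_eq_zero.1 this).resolve_left hc'
    linear_combination this
  obtain ⟨hodd, hG0T⟩ := skew_power ht h2 G0 hG0ne hskew
  have hG0det : IsUnit G0.det := by
    have := (Matrix.isUnit_iff_isUnit_det G0).1 (Gs i0).isUnit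
    exact this
  have hsk1 : ∀ v w, gform (RingHom.id F) G0 v w = -gform (RingHom.id F) G0 w v := by
    intro v w
    simp only [gform, RingHom.id_apply]
    rw [Matrix.dotProduct_mulVec, ← Matrix.mulVec_transpose, hG0T, Matrix.neg_mulVec,
      neg_dotProduct, dotProduct_comm]
  refine ⟨hodd, B * glReindex e.symm Tg, gform (RingHom.id F) G0, ⟨⟨?_, ?_, ?_, ?_⟩, hsk1, ?_, ?_⟩, ?_, ?_⟩
  · exact gform_add_left _ _
  · exact fun c x v => gform_smul_left _ _ c x v
  · exact gform_add_right _ _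
  · exact fun c v x => gform_smul_right _ _ c v x
  · intro v
    have := hsk1 v v
    have h4 : (2 : F) * gform (RingHom.id F) G0 v v = 0 := by linear_combination this
    exact (mul_eq_zero.1 h4).resolve_left h2
  · exact nondeg_of_isUnit_det (RingEquiv.refl F) G0 hG0det
  · refine ⟨c * ∏ i, l i, hc', fun x y => ?_⟩
    have hB' : ∀ z : (Fin t → Fin m) → F,
        ((B * glReindex e.symm Tg : GL ι F) : Matrix ι ι F) *ᵥ (z ∘ e) = T (PC *ᵥ z) := by
      intro z
      simp only [hT]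
      rw [Units.val_mul, ← Matrix.mulVec_mulVec, ← reindex_mulVec_comp]
      rfl
    rw [hB', hB']
    have h5 : f (T (PC *ᵥ x)) (T (PC *ᵥ y)) = f' (PC *ᵥ x) (PC *ᵥ y) := rfl
    have h6 : PC.map (RingHom.id F) = PC := by ext a b; simp
    rw [h5, hfG, gform_mulVec, h6, hnew, gform_smul, ← formOfGram_eq_gform]
    congr 1
    simp only [formOfGram, pureT_apply]
    refine Finset.sum_congr rfl fun a _ => Finset.sum_congr rfl fun b _ => ?_
    congr 2
    refine Finset.prod_congr rfl fun i _ => ?_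
    simp only [gramMatrix]
    rw [gform_single]
  · intro h hh
    obtain ⟨σ, hσ⟩ := hperm h hh
    refine mem_tensorWreath ht e _ h σ fun i X => ?_
    obtain ⟨Y, hY⟩ := hσ i ((C i).1 * X * ((C i)⁻¹ : GL (Fin m) F).1)
    refine ⟨((C (σ i))⁻¹ : GL (Fin m) F).1 * Y * (C (σ i)).1, ?_⟩
    rw [hemb, hemb, hY]
    congr 1
    have e1 : (C (σ i)).1 * ((C (σ i))⁻¹ : GL (Fin m) F).1 = 1 := by
      rw [← Units.val_mul, mul_inv_cancel]; rfl
    calc Y = ((C (σ i)).1 * ((C (σ i))⁻¹ : GL (Fin m) F).1) * Y *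
          ((C (σ i)).1 * ((C (σ i))⁻¹ : GL (Fin m) F).1) := by rw [e1, one_mul, mul_one]
      _ = _ := by simp only [mul_assoc]

end Cfsg.Agent.Lib.Helper63.Sp
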