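import Cfsg.Agent.Lib.Helper63.Sp.W1

set_option autoImplicit false

/-! # Conjugate tensor factors have similar Gram matrices -/

namespace Cfsg.Agent.Lib.Helper63.Sp

open Cfsg Cfsg.Geo Matrix Cfsg.Agent.Lib.Helper13.Asch Cfsg.Agent.Lib.Helper90.Sp
open Cfsg.Agent.Lib.Helper21.Asch Cfsg.Agent.Lib.Helper35.Asch
open scoped Kronecker MatrixGroups

variable {ι : Type} [Fintype ι] [DecidableEq ι] {F : Type*} [Field F]

/-- the adjoint of a factor with respect to a pure tensor Gram matrix -/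
theorem stdT_mul_pure {m t : ℕ} (c : F) (Gs : Fin t → GL (Fin m) F)
    (G : Matrix (Fin t → Fin m) (Fin t → Fin m) F)
    (hG : ∀ a b, G a b = c * ∏ i, (Gs i : Matrix (Fin m) (Fin m) F) (a i) (b i))
    (k : Fin t) (X : Matrix (Fin m) (Fin m) F) :
    stdT k X * G = G * stdT k ((((Gs k)⁻¹ : GL _ F) : Matrix _ _ F) * X * (Gs k : Matrix _ _ F)) := by
  have hGc : G = c • pureT (fun i => (Gs i : Matrix (Fin m) (Fin m) F)) := by
    ext a b
    rw [hG, Matrix.smul_apply, pureT_apply, smul_eq_mul]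
  have h2 := pureT_conj (fun i => (Gs i : Matrix (Fin m) (Fin m) F))
      (fun i => ((Gs i)⁻¹ : GL (Fin m) F).1) (fun j => by
        rw [← Units.val_mul, mul_inv_cancel]; rfl) k
      ((((Gs k)⁻¹ : GL _ F) : Matrix _ _ F) * X * (Gs k : Matrix _ _ F))
  have h3 : (Gs k : Matrix (Fin m) (Fin m) F) *
      ((((Gs k)⁻¹ : GL _ F) : Matrix _ _ F) * X * (Gs k : Matrix _ _ F)) *
      (((Gs k)⁻¹ : GL _ F) : Matrix _ _ F) = X := by
    have e1 : (Gs k : Matrix (Fin m) (Fin m) F) * (((Gs k)⁻¹ : GL _ F) : Matrix _ _ F) = 1 := by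
      rw [← Units.val_mul, mul_inv_cancel]; rfl
    calc _ = ((Gs k : Matrix (Fin m) (Fin m) F) * (((Gs k)⁻¹ : GL _ F) : Matrix _ _ F)) * X *
        ((Gs k : Matrix (Fin m) (Fin m) F) * (((Gs k)⁻¹ : GL _ F) : Matrix _ _ F)) := by
          simp only [mul_assoc]
      _ = X := by rw [e1, one_mul, mul_one]
  simp only [h3] at h2
  rw [hGc, mul_smul_comm, smul_mul_assoc]
  congr 1
  rw [← h2]
  simp only [mul_assoc]
  rw [pureT_GL_inv_mul, mul_one]

/-- W2 -/
theorem gram_conj {m t : ℕ} (c : F) (hc : c ≠ 0) (Gs : Fin t → GL (Fin m) F)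
    (G : Matrix (Fin t → Fin m) (Fin t → Fin m) F)
    (hG : ∀ a b, G a b = c * ∏ i, (Gs i : Matrix (Fin m) (Fin m) F) (a i) (b i))
    (M : GL (Fin t → Fin m) F) (hM : (M : Matrix _ _ F)ᵀ * G * (M : Matrix _ _ F) = G) (i j : Fin t)
    (hconj : ∀ X : Matrix (Fin m) (Fin m) F, ∃ Y : Matrix (Fin m) (Fin m) F,
      (M : Matrix _ _ F) * stdT i X * ((M⁻¹ : GL _ F) : Matrix _ _ F) = stdT j Y) :
    ∃ (C : GL (Fin m) F) (l : F), l ≠ 0 ∧
      (C : Matrix (Fin m) (Fin m) F)ᵀ * (Gs j : Matrix (Fin m) (Fin m) F) *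
        (C : Matrix (Fin m) (Fin m) F) = l • (Gs i : Matrix (Fin m) (Fin m) F) := by
  by_cases hm : Nonempty (Fin m)
  swap
  · rw [not_nonempty_iff] at hm
    exact ⟨1, 1, one_ne_zero, Subsingleton.elim _ _⟩
  have hT : Nonempty (Fin t → Fin m) := ⟨fun _ => hm.some⟩
  choose Y hY using hconj
  set Mm : Matrix (Fin t → Fin m) (Fin t → Fin m) F := M.1 with hMm
  set Mi : Matrix (Fin t → Fin m) (Fin t → Fin m) F := (M⁻¹).1 with hMi
  have eM1 : Mm * Mi = 1 := by
    rw [hMm, hMi, ← Units.val_mul, mul_inv_cancel]; rfl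
  have eM2 : Mi * Mm = 1 := by
    rw [hMm, hMi, ← Units.val_mul, inv_mul_cancel]; rfl
  let φ : Matrix (Fin m) (Fin m) F →ₐ[F] Matrix (Fin m) (Fin m) F :=
    AlgHom.ofLinearMap
      { toFun := Y
        map_add' := fun X X' => stdT_injective j (by
          rw [← hY, stdT_add, stdT_add, mul_add, add_mul, hY, hY])
        map_smul' := fun c X => stdT_injective j (by
          simp only [RingHom.id_apply]
          rw [← hY, stdT_smul, stdT_smul, mul_smul_comm, smul_mul_assoc, hY]) }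
      (stdT_injective j (by
        show stdT j (Y 1) = _
        rw [← hY, stdT_one, stdT_one, mul_one, eM1]))
      (fun X X' => stdT_injective j (by
        show stdT j (Y (X * X')) = stdT j (Y X * Y X')
        rw [stdT_mul, ← hY, ← hY, ← hY, stdT_mul]
        calc _ = Mm * stdT i X * 1 * stdT i X' * Mi := by
              simp only [mul_assoc, one_mul]
          _ = _ := by rw [← eM2]; simp only [mul_assoc]))
  obtain ⟨C, hC⟩ := algHom_inner φ
  have hC' : ∀ X, Y X = (C : Matrix _ _ F) * X * ((C⁻¹ : GL _ F) : Matrix _ _ F) := fun X => hC X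
  -- invertibility of `G`
  set PG := pureT (fun i => (Gs i : Matrix (Fin m) (Fin m) F)) with hPG
  set PG' := pureT (fun i => ((Gs i)⁻¹ : GL (Fin m) F).1) with hPG'
  have hGc : G = c • PG := by
    ext a b
    rw [hG, Matrix.smul_apply, hPG, pureT_apply, smul_eq_mul]
  have hGl : (c⁻¹ • PG') * G = 1 := by
    rw [hGc, smul_mul_assoc, mul_smul_comm, smul_smul, inv_mul_cancel₀ hc, one_smul]
    exact pureT_GL_inv_mul Gs
  have cancel : ∀ A B : Matrix (Fin t → Fin m) (Fin t → Fin m) F, G * A = G * B → A = B := by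
    intro A B h
    calc A = (c⁻¹ • PG') * G * A := by rw [hGl, one_mul]
      _ = (c⁻¹ • PG') * (G * B) := by rw [mul_assoc, h]
      _ = B := by rw [← mul_assoc, hGl, one_mul]
  -- `Mᵀ G = G M⁻¹` and `M⁻ᵀ G = G M`
  have hM1 : Mmᵀ * G = G * Mi := by
    calc Mmᵀ * G = Mmᵀ * G * (Mm *
          Mi) := by rw [eM1, mul_one]
      _ = G * Mi := by rw [← mul_assoc, hM]
  have hM2 : Miᵀ * G = G * Mm := by
    have e3 : Miᵀ * Mmᵀ = 1 := by
      rw [← Matrix.transpose_mul, eM1, Matrix.transpose_one]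
    calc Miᵀ * G
        = Miᵀ * (Mmᵀ * G * Mm) := by
          rw [hM]
      _ = G * Mm := by
          rw [← mul_assoc, ← mul_assoc, e3, one_mul]
  set Gi : Matrix (Fin m) (Fin m) F := (Gs i).1 with hGi
  set Gi' : Matrix (Fin m) (Fin m) F := ((Gs i)⁻¹).1 with hGi'
  set Gj : Matrix (Fin m) (Fin m) F := (Gs j).1 with hGj
  set Gj' : Matrix (Fin m) (Fin m) F := ((Gs j)⁻¹).1 with hGj'
  set Cm : Matrix (Fin m) (Fin m) F := C.1 with hCm
  set Cm' : Matrix (Fin m) (Fin m) F := (C⁻¹).1 with hCm'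
  have eC1 : Cm * Cm' = 1 := by rw [hCm, hCm', ← Units.val_mul, mul_inv_cancel]; rfl
  have eC2 : Cm' * Cm = 1 := by rw [hCm, hCm', ← Units.val_mul, inv_mul_cancel]; rfl
  have eI1 : Gi * Gi' = 1 := by rw [hGi, hGi', ← Units.val_mul, mul_inv_cancel]; rfl
  have eI2 : Gi' * Gi = 1 := by rw [hGi, hGi', ← Units.val_mul, inv_mul_cancel]; rfl
  have eJ1 : Gj * Gj' = 1 := by rw [hGj, hGj', ← Units.val_mul, mul_inv_cancel]; rfl
  have key : ∀ X : Matrix (Fin m) (Fin m) F,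
      Gj' * (Cm * X * Cm')ᵀ * Gj = Cm * (Gi' * Xᵀ * Gi) * Cm' := by
    intro X
    apply stdT_injective j
    apply cancel
    rw [← stdT_mul_pure c Gs G hG j, ← hC', ← hC', ← hY, ← stdT_transpose, ← hY]
    rw [Matrix.transpose_mul, Matrix.transpose_mul, stdT_transpose]
    calc Miᵀ * (stdT i Xᵀ * Mmᵀ) * G
        = Miᵀ * (stdT i Xᵀ * (Mmᵀ * G)) := by
          simp only [mul_assoc]
      _ = Miᵀ * ((stdT i Xᵀ * G) * Mi) := by
          rw [hM1]; simp only [mul_assoc]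
      _ = (Miᵀ * G) * stdT i (Gi' * Xᵀ * Gi) *
            Mi := by
          rw [stdT_mul_pure c Gs G hG i]; simp only [mul_assoc]; rfl
      _ = G * (Mm * stdT i (Gi' * Xᵀ * Gi) * Mi) := by
          rw [hM2]; simp only [mul_assoc]
  -- `E = Cᵀ G_j C G_i⁻¹` is central
  set E : Matrix (Fin m) (Fin m) F := Cmᵀ * Gj * Cm * Gi' with hE
  have eCt : Cmᵀ * Cm'ᵀ = 1 := by rw [← Matrix.transpose_mul, eC2, Matrix.transpose_one]
  have hcomm : ∀ X : Matrix (Fin m) (Fin m) F, Commute X E := by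
    intro X
    have h1 := key Xᵀ
    rw [Matrix.transpose_mul, Matrix.transpose_mul, Matrix.transpose_transpose] at h1
    -- multiply on the left by `Cᵀ G_j`, on the right by `C G_i⁻¹`
    have h2 := congrArg (fun Z => Cmᵀ * Gj * Z * (Cm * Gi')) h1
    have l1 : Cmᵀ * Gj * (Gj' * (Cm'ᵀ * (X * Cmᵀ)) * Gj) * (Cm * Gi') = X * E := by
      calc _ = Cmᵀ * (Gj * Gj') * Cm'ᵀ * X * (Cmᵀ * Gj * Cm * Gi') := by simp only [mul_assoc]
        _ = X * E := by rw [eJ1, mul_one, eCt, one_mul]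
    have l2 : Cmᵀ * Gj * (Cm * (Gi' * X * Gi) * Cm') * (Cm * Gi') = E * X := by
      calc _ = (Cmᵀ * Gj * Cm * Gi') * X * (Gi * ((Cm' * Cm) * Gi')) := by simp only [mul_assoc]
        _ = E * X := by rw [eC2, one_mul, eI1, mul_one]
    rw [l1, l2] at h2
    exact h2
  have hsc : E ∈ Set.range (Matrix.scalar (Fin m)) := by
    apply Matrix.mem_range_scalar_of_commute_single
    intro x y _
    exact hcomm _
  obtain ⟨l, hl⟩ := hsc
  have hEl : Cmᵀ * Gj * Cm = l • Gi := by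
    calc Cmᵀ * Gj * Cm = Cmᵀ * Gj * Cm * (Gi' * Gi) := by rw [eI2, mul_one]
      _ = E * Gi := by rw [hE]; simp only [mul_assoc]
      _ = l • Gi := by rw [← hl]; simp [Matrix.scalar_apply, Matrix.smul_eq_diagonal_mul]
  refine ⟨C, l, ?_, hEl⟩
  rintro rfl
  rw [zero_smul] at hEl
  -- then `G_j = 0`
  have h0 : Gj = 0 := by
    calc Gj = (Cm'ᵀ * Cmᵀ) * Gj * (Cm * Cm') := by
          rw [← Matrix.transpose_mul, eC1, Matrix.transpose_one, one_mul, mul_one]
      _ = Cm'ᵀ * (Cmᵀ * Gj * Cm) * Cm' := by simp only [mul_assoc]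
      _ = 0 := by rw [hEl, mul_zero, zero_mul]
  rw [h0, zero_mul] at eJ1
  exact zero_ne_one eJ1

end Cfsg.Agent.Lib.Helper63.Sp
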